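import Cfsg.Agent.H501.HT.HX
import Cfsg.Agent.H428.HT.Norm
import Cfsg.Agent.H18.HT.Dbl

/-!
# `hX` of the trace lemma in the double frame (helper501, S4933, unitary primes)

`mx_iff`      : maximal totally singular = totally singular of dimension `k`;
`card_eq`     : the number of fixed maximal totally singular subspaces, for an action on a set `Y`;
`inner_psf_dbl` : `⟨R χ₁, R χ₂⟩ = 2 δ` for the constituents of the permutation character of `Y`;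
`hX_dbl`      : `hX`.
-/

set_option autoImplicit false

open scoped ComplexConjugate
open Cfsg

namespace Cfsg.Agent.H501.HT

open Cfsg.Agent.OddOrderCharacters.Clifford Cfsg.Agent.Characters MulAction Module
open Cfsg.Agent.H53.HC Cfsg.Agent.H477.HC Cfsg.Agent.H749.Two Cfsg.Agent.H279.Dl
open Cfsg.Agent.H18.HT (Dbl eq_of_le_of_om)
open Cfsg.Agent.H428.HT (Mx inner_hc_psf)

universe u v w w'

section mx

variable {K : Type u} [Field K] {X' : Type w} [AddCommGroup X'] [Module K X'] {F' : CForm K X'}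

/-- a subspace of given dimension -/
theorem exists_sub_finrank [FiniteDimensional K X'] {Z : Submodule K X'} {k d : ℕ} (hZ : finrank K Z = k) (hd : d ≤ k) :
    ∃ U ≤ Z, finrank K U = d := by
  classical
  let b : Basis (Fin k) K Z := finBasisOfFinrankEq K Z hZ
  let v : Fin d → X' := fun i => (b (Fin.castLE hd i) : X')
  have hv : LinearIndependent K v :=
    (b.linearIndependent.comp (Fin.castLE hd) (Fin.castLE_injective hd)).map' Z.subtype Z.ker_subtype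
  refine ⟨Submodule.span K (Set.range v), ?_, ?_⟩
  · rw [Submodule.span_le]
    rintro _ ⟨i, rfl⟩
    exact (b (Fin.castLE hd i)).2
  · rw [finrank_span_eq_card hv, Fintype.card_fin]

/-- maximal totally singular subspaces have dimension `k` -/
theorem mx_iff [FiniteDimensional K X'] {k : ℕ} (hle : ∀ U : Submodule K X', F'.TS U → finrank K U ≤ k)
    {Z : Submodule K X'} (hZ : Z ∈ F'.Om k) (U : Submodule K X') : Mx F' U ↔ U ∈ F'.Om k := by
  constructor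
  · rintro ⟨h1, h2⟩
    refine ⟨h1, ?_⟩
    obtain ⟨U₀, hU₀, hd⟩ := exists_sub_finrank hZ.2 (hle U h1)
    obtain ⟨g, hg⟩ := F'.trans_Om (W := U₀) (W' := U) (k := finrank K U) ⟨hZ.1.mono hU₀, hd⟩ ⟨h1, rfl⟩
    have h3 : U ≤ Z.map (F'.iso.subtype g : X' →ₗ[K] X') := by
      rw [← hg]
      exact Submodule.map_mono hU₀
    have h4 := h2 _ (hZ.1.map g) h3
    have h5 := F'.Om_map g Z hZ
    rw [← h4]
    exact h5.2
  · intro h
    exact ⟨h.1, fun U' hU' hl => eq_of_le_of_om hle h hU' hl⟩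

/-- the number of fixed points, in terms of the maximal totally singular subspaces -/
theorem card_eq [FiniteDimensional K X'] {k : ℕ} (hle : ∀ U : Submodule K X', F'.TS U → finrank K U ≤ k)
    {Z : Submodule K X'} (hZ : Z ∈ F'.Om k) {Y : Type*} [MulAction F'.iso Y] (s : Y → Submodule K X')
    (hsi : Function.Injective s) (hsr : ∀ U, U ∈ F'.Om k ↔ ∃ y, s y = U)
    (hs : ∀ (g : F'.iso) y, s (g • y) = (s y).map (F'.iso.subtype g : X' →ₗ[K] X')) (g : F'.iso) :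
    Nat.card {y : Y // g • y = y} =
      Nat.card {U : Submodule K X' // Mx F' U ∧ U.map (F'.iso.subtype g : X' →ₗ[K] X') = U} := by
  refine Nat.card_congr (Equiv.ofBijective
    (fun y => ⟨s y.1, (mx_iff hle hZ _).2 ((hsr _).2 ⟨y.1, rfl⟩), by rw [← hs, y.2]⟩) ⟨?_, ?_⟩)
  · intro y y' hy
    exact Subtype.ext (hsi (congrArg Subtype.val hy))
  · rintro ⟨U, hU, hg⟩
    obtain ⟨y, rfl⟩ := (hsr U).1 ((mx_iff hle hZ _).1 hU)
    exact ⟨⟨y, hsi (by rw [hs, hg])⟩, rfl⟩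

/-- transitivity -/
theorem trans_Y [FiniteDimensional K X'] {k : ℕ} {Y : Type*} [MulAction F'.iso Y] (s : Y → Submodule K X')
    (hsi : Function.Injective s) (hsr : ∀ U, U ∈ F'.Om k ↔ ∃ y, s y = U)
    (hs : ∀ (g : F'.iso) y, s (g • y) = (s y).map (F'.iso.subtype g : X' →ₗ[K] X')) (y y' : Y) :
    ∃ g : F'.iso, g • y = y' := by
  obtain ⟨g, hg⟩ := F'.trans_Om ((hsr _).2 ⟨y, rfl⟩) ((hsr _).2 ⟨y', rfl⟩)
  exact ⟨g, hsi (by rw [hs, hg])⟩

end mx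

section dbl

variable {K : Type u} [Field K] {V : Type v} [AddCommGroup V] [Module K V] {X' : Type w} [AddCommGroup X']
  [Module K X'] {X₂ : Type w'} [AddCommGroup X₂] [Module K X₂]
  {F : CForm K V} {F' : CForm K X'} {F₂ : CForm K X₂} {j : X' →ₗ[K] V} {j₂ : X₂ →ₗ[K] V}
  {W₀ Z₀ : Submodule K V} {W₂ : Submodule K X₂} {Z' : Submodule K X'} {b k : ℕ}

/-- **the norms** -/
theorem inner_psf_dbl [Finite K] [FiniteDimensional K V] [Finite V] [FiniteDimensional K X']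
    [Fintype F.iso] [Fintype F'.iso] [Fintype (F.Om b)] (h : Cmp F F' j W₀) (hW₀ : W₀ ∈ F.Om b) (hb : 2 ≤ b)
    (hle : ∀ U : Submodule K X', F'.TS U → finrank K U ≤ k) (hZ : Z' ∈ F'.Om k)
    (c : IrrCharacter (GL (Fin b) K)) (hcusp : IsCusp (c : GL (Fin b) K → ℂ))
    (hdual : (c : GL (Fin b) K → ℂ) ∘ F.iota b = c) {ρ : stabW F.iso.subtype W₀ →* F'.iso}
    (hρ1 : ∀ (g : stabW F.iso.subtype W₀) y, ((g : F.iso) : V ≃ₗ[K] V) (j y) - j ((ρ g : X' ≃ₗ[K] X') y) ∈ W₀)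
    (hρ2 : ∀ g : stabW F.iso.subtype W₀, (g : F.iso) ∈ F.TT W₀ → ρ g = 1)
    (hρ3 : ∀ (a : W₀ ≃ₗ[K] W₀) (b : F'.iso), ∃ g : stabW F.iso.subtype W₀, ρ g = b ∧
        ∀ w : W₀, ((g : F.iso) : V ≃ₗ[K] V) w = a w)
    {Y : Type*} [MulAction F'.iso Y] [Finite Y] (s : Y → Submodule K X')
    (hsi : Function.Injective s) (hsr : ∀ U, U ∈ F'.Om k ↔ ∃ y, s y = U)
    (hs : ∀ (g : F'.iso) y, s (g • y) = (s y).map (F'.iso.subtype g : X' →ₗ[K] X')) (χ₁ χ₂ : IrrCharacter F'.iso)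
    (h₁ : classInner (fun g => (Nat.card {y : Y // g • y = y} : ℂ)) (χ₁ : F'.iso → ℂ) ≠ 0)
    (h₂ : classInner (fun g => (Nat.card {y : Y // g • y = y} : ℂ)) (χ₂ : F'.iso → ℂ) ≠ 0) :
    classInner (F.hc (c : GL (Fin b) K → ℂ) (psf F W₀ ((χ₁ : F'.iso → ℂ) ∘ ρ)))
        (F.hc (c : GL (Fin b) K → ℂ) (psf F W₀ ((χ₂ : F'.iso → ℂ) ∘ ρ))) = if χ₁ = χ₂ then 2 else 0 := by
  classical
  set π : F'.iso → ℂ := fun g => (Nat.card {y : Y // g • y = y} : ℂ) with hπ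
  have hπc : IsCharacter F'.iso π := by
    let _ : Fintype Y := Fintype.ofFinite Y
    exact S0157.isCharacter_fixedBy Y
  have key : ∀ χ : IrrCharacter F'.iso, ∀ g : F'.iso, (χ : F'.iso → ℂ) g + (π - (χ : F'.iso → ℂ)) g =
      (Nat.card {U : Submodule K X' // Mx F' U ∧ U.map (F'.iso.subtype g : X' →ₗ[K] X') = U} : ℂ) := by
    intro χ g
    rw [Pi.sub_apply, add_sub_cancel, hπ]
    change ((Nat.card {y : Y // g • y = y} : ℕ) : ℂ) = _
    rw [card_eq hle hZ s hsi hsr hs g]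
  rw [inner_hc_psf h hb c.2 hcusp hdual hρ1 hρ2 hρ3 (Core.isIrr_isCharacter χ₁.2) (Core.isIrr_isCharacter χ₂.2)
    (isCharacter_sub_irr hπc χ₁.2 h₁) (isCharacter_sub_irr hπc χ₂.2 h₂) (key χ₁) (key χ₂) hW₀]
  split_ifs with he
  · rw [he, Core.classInner_irr_self χ₂.2, mul_one]
  · rw [Core.classInner_irr_ne χ₁.2 χ₂.2 (fun h' => he (Subtype.ext h')), mul_zero]

/-- **`hX` of the trace lemma** -/
theorem hX_dbl [Finite K] [FiniteDimensional K V] [Finite V] [FiniteDimensional K X'] [Fintype F.iso]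
    (h : Dbl F F' F₂ j j₂ W₀ Z₀ W₂ Z' b k) (hb : 2 ≤ b)
    (c : IrrCharacter (GL (Fin b) K)) (hcusp : IsCusp (c : GL (Fin b) K → ℂ))
    (hdual : (c : GL (Fin b) K → ℂ) ∘ F.iota b = c) {ρ : stabW F.iso.subtype W₀ →* F'.iso}
    (hρ1 : ∀ (g : stabW F.iso.subtype W₀) y, ((g : F.iso) : V ≃ₗ[K] V) (j y) - j ((ρ g : X' ≃ₗ[K] X') y) ∈ W₀)
    (hρ2 : ∀ g : stabW F.iso.subtype W₀, (g : F.iso) ∈ F.TT W₀ → ρ g = 1)
    (hρ3 : ∀ (a : W₀ ≃ₗ[K] W₀) (b : F'.iso), ∃ g : stabW F.iso.subtype W₀, ρ g = b ∧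
        ∀ w : W₀, ((g : F.iso) : V ≃ₗ[K] V) w = a w)
    {Y : Type*} [MulAction F'.iso Y] [Finite Y] (s : Y → Submodule K X')
    (hsi : Function.Injective s) (hsr : ∀ U, U ∈ F'.Om k ↔ ∃ y, s y = U)
    (hs : ∀ (g : F'.iso) y, s (g • y) = (s y).map (F'.iso.subtype g : X' →ₗ[K] X'))
    [Fintype F'.iso] (χ : IrrCharacter F'.iso)
    (hχ : classInner (fun g => (Nat.card {y : Y // g • y = y} : ℂ)) (χ : F'.iso → ℂ) = 1)
    [Fintype (stabW F.iso.subtype W₀)] [Fintype ↥(stabW F.iso.subtype W₀ ⊓ stabW F.iso.subtype (W₀ ⊔ Z₀))]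
    (X : IrrCharacter F.iso)
    (hX : classInner (fun x : stabW F.iso.subtype W₀ => (X : F.iso → ℂ) x)
      (fun x => flagTerm F.iso.subtype (c : GL (Fin b) K → ℂ) x W₀ * (χ : F'.iso → ℂ) (ρ x)) ≠ 0) :
    classInner (fun x : ↥(stabW F.iso.subtype W₀ ⊓ stabW F.iso.subtype (W₀ ⊔ Z₀)) => (X : F.iso → ℂ) x)
      (fun x => flagTerm F.iso.subtype (c : GL (Fin b) K → ℂ) x W₀) = 1 := by
  classical
  have := finite_Om F b
  let _ : Fintype (F.Om b) := Fintype.ofFinite _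
  obtain ⟨y₀, hy₀⟩ := (hsr Z').1 h.Z'_mem
  refine hX_hc h.cmp h.W₀_mem c hρ1 hρ2 (fun b' => ?_) (trans_Y s hsi hsr hs) s (fun g y => ?_) y₀
    (by rw [hy₀, h.Z'_map]) (fun χ₁ χ₂ h₁ h₂ => inner_psf_dbl h.cmp h.W₀_mem hb h.le' h.Z'_mem c hcusp hdual hρ1 hρ2 hρ3 s
      hsi hsr hs χ₁ χ₂ h₁ h₂) χ hχ X hX
  · obtain ⟨g, hg, -⟩ := hρ3 1 b'
    exact ⟨g, hg⟩
  · rw [← hs]
    exact ⟨fun h1 => by rw [h1], fun h1 => hsi h1⟩

end dbl

end Cfsg.Agent.H501.HT
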