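import Cfsg.Agent.H477.HC.Main

/-!
# Vanishing for the permutation character on maximal totally singular subspaces (helper501, S4933, box VM of helper47)

`W₀ ⟂ W'`, `W₀ ⊓ W' = ⊥`, `W₀ ≤ Λ`, `W' ≤ Λ'`, `Λ`, `Λ'` maximal totally singular: some subgroup of the stabiliser of
the four spaces acts on `W₀` as a unipotent radical and trivially on `W'` (or conversely).
-/

set_option autoImplicit false

open scoped ComplexConjugate
open Cfsg

namespace Cfsg.Agent.H501.HT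

open Cfsg.Agent.OddOrderCharacters.Clifford Cfsg.Agent.Characters MulAction Module Cfsg.Agent.H53.HC
open Cfsg.Agent.H477.HC Cfsg.Agent.H477.HC.CForm

universe u v

variable {K : Type u} [Field K] {V : Type v} [AddCommGroup V] [Module K V] {F : CForm K V}

/-- `van_of_root` with a subgroup of `S` -/
theorem van_of_root_le [FiniteDimensional K V] [Finite V] {k : ℕ} {c : GL (Fin k) K → ℂ} (hcf : IsClassFunction _ c)
    (hcusp : IsCusp c) {W₀ W' : Submodule K V} (hW₀ : finrank K W₀ = k)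
    (hW' : finrank K W' = k) (D : Submodule K V) (hD : D ≤ W₀) (hD0 : D ≠ ⊥) (hD1 : D ≠ W₀) (S : Subgroup F.iso)
    (hgen : ∀ c ∈ D, ∀ f : W₀ →ₗ[K] K, (∀ w : W₀, (w : V) ∈ D → f w = 0) →
      ∃ g ∈ S, (∀ w' ∈ W', (g : V ≃ₗ[K] V) w' = w') ∧ ∀ w : W₀, (g : V ≃ₗ[K] V) w = w + f w • c) :
    ∃ L : Subgroup F.iso, L ≤ stabW F.iso.subtype W₀ ∧ L ≤ stabW F.iso.subtype W' ∧ L ≤ S ∧
      ∀ [Fintype L], ∑ l : L, flagTerm F.iso.subtype c l W₀ * conj (flagTerm F.iso.subtype c l W') = 0 := by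
  classical
  have b₀ : Basis (Fin k) K W₀ := finBasisOfFinrankEq K W₀ hW₀
  have b₁ : Basis (Fin k) K W' := finBasisOfFinrankEq K W' hW'
  let D₀ : Submodule K W₀ := D.comap W₀.subtype
  have hD₀0 : D₀ ≠ ⊥ := by
    intro h
    apply hD0
    rw [Submodule.eq_bot_iff] at h ⊢
    intro x hx
    have := h ⟨x, hD hx⟩ hx
    exact congrArg Subtype.val this
  have hD₀1 : D₀ ≠ ⊤ := by
    intro h
    apply hD1
    apply le_antisymm hD
    intro x hx
    have : (⟨x, hx⟩ : W₀) ∈ D₀ := by rw [h]; trivial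
    exact this
  let L : Subgroup F.iso :=
    { carrier := {g | g ∈ S ∧ (∀ w' ∈ W', (g : V ≃ₗ[K] V) w' = w') ∧ (∀ w ∈ W₀, (g : V ≃ₗ[K] V) w - w ∈ D) ∧
        ∀ d ∈ D, (g : V ≃ₗ[K] V) d = d}
      one_mem' := ⟨S.one_mem, fun _ _ => rfl, fun w _ => by
        change w - w ∈ D
        rw [sub_self]; exact D.zero_mem, fun _ _ => rfl⟩
      mul_mem' := by
        rintro x y ⟨hx0, hx1, hx2, hx3⟩ ⟨hy0, hy1, hy2, hy3⟩
        refine ⟨S.mul_mem hx0 hy0, fun w' hw' => ?_, fun w hw => ?_, fun d hd => ?_⟩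
        · rw [Subgroup.coe_mul, LinearEquiv.mul_apply, hy1 w' hw', hx1 w' hw']
        · have h1 : (y : V ≃ₗ[K] V) w ∈ W₀ := by
            have := W₀.add_mem (hD (hy2 w hw)) hw
            rwa [sub_add_cancel] at this
          have : ((x * y : F.iso) : V ≃ₗ[K] V) w - w =
              ((x : V ≃ₗ[K] V) ((y : V ≃ₗ[K] V) w) - (y : V ≃ₗ[K] V) w) + ((y : V ≃ₗ[K] V) w - w) := by
            rw [Subgroup.coe_mul, LinearEquiv.mul_apply]; abel
          rw [this]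
          exact D.add_mem (hx2 _ h1) (hy2 w hw)
        · rw [Subgroup.coe_mul, LinearEquiv.mul_apply, hy3 d hd, hx3 d hd]
      inv_mem' := by
        rintro x ⟨hx0, hx1, hx2, hx3⟩
        have key : ∀ v, (x : V ≃ₗ[K] V) v = v → ((x⁻¹ : F.iso) : V ≃ₗ[K] V) v = v := by
          intro v hv
          have h1 : ((x⁻¹ : F.iso) : V ≃ₗ[K] V) ((x : V ≃ₗ[K] V) v) = v := (x : V ≃ₗ[K] V).symm_apply_apply v
          rwa [hv] at h1
        refine ⟨S.inv_mem hx0, fun w' hw' => key _ (hx1 w' hw'), fun w hw => ?_, fun d hd => key _ (hx3 d hd)⟩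
        have h1 := hx2 w hw
        have h2 := key _ (hx3 _ h1)
        rw [map_sub] at h2
        have h3 : ((x⁻¹ : F.iso) : V ≃ₗ[K] V) ((x : V ≃ₗ[K] V) w) = w := (x : V ≃ₗ[K] V).symm_apply_apply w
        rw [h3] at h2
        have h4 : ((x⁻¹ : F.iso) : V ≃ₗ[K] V) w - w = -((x : V ≃ₗ[K] V) w - w) := by rw [← h2]; abel
        rw [h4]
        exact D.neg_mem h1 }
  have hL0 : ∀ l ∈ L, W₀.map (F.iso.subtype l : V →ₗ[K] V) = W₀ := fun l hl => map_eq_of_le F.iso.subtype fun w hw => by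
    have := W₀.add_mem (hD (hl.2.2.1 w hw)) hw
    rwa [sub_add_cancel] at this
  have hL1 : ∀ l ∈ L, W'.map (F.iso.subtype l : V →ₗ[K] V) = W' := fun l hl => map_eq_of_le F.iso.subtype fun w hw => by
    have := hl.2.1 w hw
    change (l : V ≃ₗ[K] V) w ∈ W'
    rw [this]; exact hw
  refine ⟨L, fun l hl => hL0 l hl, fun l hl => hL1 l hl, fun l hl => hl.1, fun {_} => ?_⟩
  have hfinW : Finite (W₀ ≃ₗ[K] W₀) :=
    Finite.of_injective (fun e : W₀ ≃ₗ[K] W₀ => (e : W₀ → W₀)) DFunLike.coe_injective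
  have : Fintype (radU D₀) := Fintype.ofFinite _
  let f : L →* radU D₀ :=
    { toFun := fun l => ⟨res (F.iso.subtype l) W₀ (hL0 l l.2), fun w => l.2.2.2.1 w w.2, fun d hd => by
          apply Subtype.ext
          exact l.2.2.2.2 d hd⟩
      map_one' := by
        apply Subtype.ext
        ext w
        rfl
      map_mul' := fun x y => by
        apply Subtype.ext
        ext w
        rfl }
  have hf : Function.Surjective f := by
    have h1 := mem_of_transv D₀ (f.range.map (radU D₀).subtype) (by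
      intro c hc f' hf'
      obtain ⟨g, hgS, hg1, hg2⟩ := hgen c hc f' (fun w hw => hf' w hw)
      have hgL : g ∈ L := by
        refine ⟨hgS, hg1, fun w hw => ?_, fun d hd => ?_⟩
        · rw [hg2 ⟨w, hw⟩, add_sub_cancel_left]
          exact D.smul_mem _ hc
        · rw [hg2 ⟨d, hD hd⟩, hf' _ hd, zero_smul, add_zero]
      refine ⟨_, ⟨f ⟨g, hgL⟩, ⟨⟨g, hgL⟩, rfl⟩, rfl⟩, fun w => ?_⟩
      apply Subtype.ext
      exact hg2 w)
    rintro ⟨u, hu⟩
    obtain ⟨_, ⟨l, rfl⟩, h2⟩ := h1 hu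
    exact ⟨l, Subtype.ext h2⟩
  have e1 : ∀ l : L, flagTerm F.iso.subtype c l W₀ * conj (flagTerm F.iso.subtype c l W') =
      (fun u : radU D₀ => cl c (u : W₀ ≃ₗ[K] W₀) * conj (c 1)) (f l) := by
    intro l
    rw [flagTerm_of F.iso.subtype c (hL0 l l.2), flagTerm_of F.iso.subtype c (hL1 l l.2)]
    have e2 : res (F.iso.subtype (l : F.iso)) W' (hL1 l l.2) = 1 := by
      ext w
      exact l.2.2.1 w w.2
    rw [e2, cl_one hcf b₁]
    rfl
  rw [Finset.sum_congr rfl fun l _ => e1 l,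
    sum_comp_hom f hf (fun u : radU D₀ => cl c (u : W₀ ≃ₗ[K] W₀) * conj (c 1)), ← Finset.sum_mul,
    hcusp.sum_eq hcf b₀ D₀ hD₀0 hD₀1, zero_mul, mul_zero]

/-- a maximal totally singular subspace contains the singular vectors of its orthogonal space -/
theorem mem_of_max {Lam : Submodule K V} (hL : F.TS Lam) (hmax : ∀ U, F.TS U → Lam ≤ U → U = Lam) {w : V}
    (hw : F.Sing w) (h : ∀ b ∈ Lam, F.B w b = 0) : w ∈ Lam := by
  have hU : F.TS (Lam ⊔ Submodule.span K {w}) := by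
    refine ⟨?_, ?_⟩
    · intro v hv
      obtain ⟨a, ha, b, hb, rfl⟩ := Submodule.mem_sup.1 hv
      obtain ⟨t, rfl⟩ := Submodule.mem_span_singleton.1 hb
      rw [F.Q_add, hL.1 a ha, F.Q_smul, hw.1, F.B_smul_right, F.B_eq_zero (h a ha), mul_zero, mul_zero, F.T_zero,
        add_zero, add_zero]
    · intro v hv v' hv'
      obtain ⟨a, ha, b, hb, rfl⟩ := Submodule.mem_sup.1 hv
      obtain ⟨t, rfl⟩ := Submodule.mem_span_singleton.1 hb
      obtain ⟨a', ha', b', hb', rfl⟩ := Submodule.mem_sup.1 hv'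
      obtain ⟨t', rfl⟩ := Submodule.mem_span_singleton.1 hb'
      rw [F.B_add_left, F.B_add_right, F.B_add_right, F.B_smul_left, F.B_smul_left, F.B_smul_right, F.B_smul_right,
        hL.2 a ha a' ha', F.B_eq_zero (h a ha), h a' ha', hw.2]
      simp only [mul_zero, add_zero]
  rw [← hmax _ hU le_sup_left]
  exact Submodule.mem_sup_right (Submodule.mem_span_singleton_self w)

/-- the stabiliser of two subspaces -/
def st (F : CForm K V) (Lam Lam' : Submodule K V) : Subgroup F.iso := stabW F.iso.subtype Lam ⊓ stabW F.iso.subtype Lam'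

theorem mem_st [FiniteDimensional K V] {Lam Lam' : Submodule K V} {g : F.iso} (h1 : ∀ v ∈ Lam, (g : V ≃ₗ[K] V) v ∈ Lam)
    (h2 : ∀ v ∈ Lam', (g : V ≃ₗ[K] V) v ∈ Lam') : g ∈ st F Lam Lam' :=
  ⟨map_eq_of_le F.iso.subtype fun w hw => h1 w hw, map_eq_of_le F.iso.subtype fun w hw => h2 w hw⟩

/-- the case `W₀ ⊄ Λ'` -/
theorem van_not_le [FiniteDimensional K V] [Finite V] {k : ℕ} (hk : 2 ≤ k) {c : GL (Fin k) K → ℂ}
    (hcf : IsClassFunction _ c) (hcusp : IsCusp c) {W₀ W' : Submodule K V} (hW₀ : W₀ ∈ F.Om k) (hW' : W' ∈ F.Om k)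
    (hperp : W₀ ≤ F.perp W') {Lam Lam' : Submodule K V} (hL : F.TS Lam) (hL' : F.TS Lam')
    (hmax' : ∀ U, F.TS U → Lam' ≤ U → U = Lam') (h1 : W₀ ≤ Lam) (h2 : W' ≤ Lam') (h3 : ¬ W₀ ≤ Lam') :
    ∃ L : Subgroup F.iso, L ≤ stabW F.iso.subtype W₀ ∧ L ≤ stabW F.iso.subtype W' ∧ L ≤ st F Lam Lam' ∧
      ∀ [Fintype L], ∑ l : L, flagTerm F.iso.subtype c l W₀ * conj (flagTerm F.iso.subtype c l W') = 0 := by
  classical
  obtain ⟨D, hD0, hD1, hDW, hAD⟩ : ∃ D : Submodule K V, D ≠ ⊥ ∧ D ≠ W₀ ∧ D ≤ W₀ ∧ W₀ ⊓ Lam' ≤ D := by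
    by_cases hA : W₀ ⊓ Lam' = ⊥
    · obtain ⟨x, hx, hx0⟩ : ∃ x ∈ W₀, x ≠ 0 := by
        by_contra h
        push Not at h
        have : W₀ = ⊥ := (Submodule.eq_bot_iff _).2 h
        have h2 := hW₀.2
        rw [this, finrank_bot] at h2
        omega
      refine ⟨K ∙ x, fun h => hx0 (Submodule.span_singleton_eq_bot.1 h), fun h => ?_,
        (Submodule.span_singleton_le_iff_mem _ _).2 hx, by rw [hA]; exact bot_le⟩
      have h2 := hW₀.2
      rw [← h, finrank_span_singleton hx0] at h2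
      omega
    · refine ⟨W₀ ⊓ Lam', hA, fun h => h3 ?_, inf_le_left, le_rfl⟩
      rw [← h]
      exact inf_le_right
  refine van_of_root_le hcf hcusp hW₀.2 hW'.2 D hDW hD0 hD1 (st F Lam Lam') fun x hx f hf => ?_
  have hxW : x ∈ W₀ := hDW hx
  obtain ⟨b, hb, hb'⟩ := F.exists_pair W₀ Lam' f (fun w hw =>
    hf w (hAD ⟨w.2, mem_of_max hL' hmax' (hW₀.1.sing w.2) hw⟩))
  have hxb : F.B x b = 0 := by rw [← hb' ⟨x, hxW⟩, hf ⟨x, hxW⟩ hx]
  obtain ⟨g, hg⟩ := F.exists_root (hW₀.1.sing hxW) (hL'.sing hb) hxb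
  refine ⟨g, mem_st (fun v hv => ?_) (fun v hv => ?_), fun w' hw' => ?_, fun w => ?_⟩
  · rw [hg, hL.2 v hv x (h1 hxW)]
    have : v + F.B v b • x - (F.ε⁻¹ * 0) • b = v + F.B v b • x := by module
    rw [this]
    exact Lam.add_mem hv (Lam.smul_mem _ (h1 hxW))
  · rw [hg, hL'.2 v hv b hb]
    have : v + (0 : K) • x - (F.ε⁻¹ * F.B v x) • b = v - (F.ε⁻¹ * F.B v x) • b := by module
    rw [this]
    exact Lam'.sub_mem hv (Lam'.smul_mem _ hb)
  · rw [hg, hL'.2 w' (h2 hw') b hb, F.B_eq_zero (hperp hxW w' hw')]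
    module
  · rw [hg, hb', hW₀.1.2 w w.2 x hxW]
    module

/-- the case `W₀ ≤ Λ'`, `W' ≤ Λ` -/
theorem van_le [FiniteDimensional K V] [Finite V] {k : ℕ} (hk : 2 ≤ k) {c : GL (Fin k) K → ℂ}
    (hcf : IsClassFunction _ c) (hcusp : IsCusp c) {W₀ W' : Submodule K V} (hW₀ : W₀ ∈ F.Om k) (hW' : W' ∈ F.Om k)
    (hperp : W₀ ≤ F.perp W') (h0 : W₀ ⊓ W' = ⊥) {Lam Lam' : Submodule K V} (hL : F.TS Lam) (hL' : F.TS Lam')
    (h1 : W₀ ≤ Lam) (h3 : W₀ ≤ Lam') :
    ∃ L : Subgroup F.iso, L ≤ stabW F.iso.subtype W₀ ∧ L ≤ stabW F.iso.subtype W' ∧ L ≤ st F Lam Lam' ∧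
      ∀ [Fintype L], ∑ l : L, flagTerm F.iso.subtype c l W₀ * conj (flagTerm F.iso.subtype c l W') = 0 := by
  classical
  obtain ⟨x, hx, hx0⟩ : ∃ x ∈ W₀, x ≠ 0 := by
    by_contra h
    push Not at h
    have : W₀ = ⊥ := (Submodule.eq_bot_iff _).2 h
    have h2 := hW₀.2
    rw [this, finrank_bot] at h2
    omega
  refine van_of_root_le hcf hcusp hW₀.2 hW'.2 (K ∙ x) ((Submodule.span_singleton_le_iff_mem _ _).2 hx)
    (fun h => hx0 (Submodule.span_singleton_eq_bot.1 h)) (fun h => ?_) (st F Lam Lam') fun y hy f hf => ?_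
  · have h2 := hW₀.2
    rw [← h, finrank_span_singleton hx0] at h2
    omega
  · have hyW : y ∈ W₀ := ((Submodule.span_singleton_le_iff_mem _ _).2 hx) hy
    by_cases hf0 : f = 0
    · refine ⟨1, (st F Lam Lam').one_mem, fun _ _ => rfl, fun w => ?_⟩
      rw [hf0, LinearMap.zero_apply, zero_smul, add_zero]
      rfl
    obtain ⟨b, hb, hb1, hb2⟩ := exists_sing_dual hW₀.1 hperp f (fun w hw => by
      have : (w : V) ∈ W₀ ⊓ W' := ⟨w.2, hw⟩
      rw [h0] at this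
      have e : w = 0 := Subtype.ext ((Submodule.mem_bot K).1 this)
      rw [e, map_zero]) hf0
    have hyb : F.B y b = 0 := by rw [← hb1 ⟨y, hyW⟩, hf ⟨y, hyW⟩ hy]
    obtain ⟨g, hg⟩ := F.exists_root (hW₀.1.sing hyW) hb hyb
    have key : ∀ {U : Submodule K V}, F.TS U → y ∈ U → ∀ v ∈ U, (g : V ≃ₗ[K] V) v ∈ U := by
      intro U hU hyU v hv
      rw [hg, hU.2 v hv y hyU]
      have : v + F.B v b • y - (F.ε⁻¹ * 0) • b = v + F.B v b • y := by module
      rw [this]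
      exact U.add_mem hv (U.smul_mem _ hyU)
    refine ⟨g, mem_st (key hL (h1 hyW)) (key hL' (h3 hyW)), fun w' hw' => ?_, fun w => ?_⟩
    · rw [hg, hb2 w' hw', F.B_eq_zero (hperp hyW w' hw')]
      module
    · rw [hg, hb1, hW₀.1.2 w w.2 y hyW]
      module

/-- exchange of the two subspaces -/
theorem conj_sum {G : Type*} [Group G] {L : Subgroup G} [Fintype L] {a b : L → ℂ} (h : ∑ l : L, a l * conj (b l) = 0) :
    ∑ l : L, b l * conj (a l) = 0 := by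
  have h1 := congrArg conj h
  rw [map_sum, map_zero] at h1
  rw [← h1]
  refine Finset.sum_congr rfl fun l _ => ?_
  rw [map_mul, Complex.conj_conj, mul_comm]

/-- **VM**: vanishing for `W' ⟂ W₀`, `W' ⊓ W₀ = ⊥` and the permutation character on the maximal totally singular
subspaces -/
theorem van_max [FiniteDimensional K V] [Finite V] {k : ℕ} (hk : 2 ≤ k) {c : GL (Fin k) K → ℂ}
    (hcf : IsClassFunction _ c) (hcusp : IsCusp c) {W₀ W' : Submodule K V} (hW₀ : W₀ ∈ F.Om k) (hW' : W' ∈ F.Om k)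
    (hperp : W₀ ≤ F.perp W') (h0 : W₀ ⊓ W' = ⊥) {Lam Lam' : Submodule K V} (hL : F.TS Lam) (hL' : F.TS Lam')
    (hmax : ∀ U, F.TS U → Lam ≤ U → U = Lam) (hmax' : ∀ U, F.TS U → Lam' ≤ U → U = Lam') (h1 : W₀ ≤ Lam)
    (h2 : W' ≤ Lam') :
    ∃ L : Subgroup F.iso, L ≤ stabW F.iso.subtype W₀ ∧ L ≤ stabW F.iso.subtype W' ∧ L ≤ stabW F.iso.subtype Lam ∧
      L ≤ stabW F.iso.subtype Lam' ∧
      ∀ [Fintype L], ∑ l : L, flagTerm F.iso.subtype c l W₀ * conj (flagTerm F.iso.subtype c l W') = 0 := by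
  by_cases h3 : W₀ ≤ Lam'
  · by_cases h4 : W' ≤ Lam
    · obtain ⟨L, hL1, hL2, hL3, hL4⟩ := van_le hk hcf hcusp hW₀ hW' hperp h0 hL hL' h1 h3
      exact ⟨L, hL1, hL2, hL3.trans inf_le_left, hL3.trans inf_le_right, hL4⟩
    · have hperp' : W' ≤ F.perp W₀ := fun w' hw' w hw => F.B_eq_zero (hperp hw w' hw')
      obtain ⟨L, hL1, hL2, hL3, hL4⟩ := van_not_le hk hcf hcusp hW' hW₀ hperp' hL' hL hmax h2 h1 h4
      exact ⟨L, hL2, hL1, hL3.trans inf_le_right, hL3.trans inf_le_left, fun {_} => conj_sum hL4⟩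
  · obtain ⟨L, hL1, hL2, hL3, hL4⟩ := van_not_le hk hcf hcusp hW₀ hW' hperp hL hL' hmax' h1 h2 h3
    exact ⟨L, hL1, hL2, hL3.trans inf_le_left, hL3.trans inf_le_right, hL4⟩

end Cfsg.Agent.H501.HT
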